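import Mathlib
import Cfsg.Agent.Lib.Helper56.TC
import Cfsg.Agent.Lib.Helper56.Suz22880.D
set_option autoImplicit false
set_option maxRecDepth 1000000

namespace Cfsg.Agent.Lib.Helper56.Suz22880

open Cfsg.Agent.Lib.Helper56.TC Cfsg.Agent.Lib.Helper56.TC.Tabs

theorem cN_0 : allRange (fun x => forceN T.chkName x) 0 722 = true := by decide +kernel
theorem cN_722 : allRange (fun x => forceN T.chkName x) 722 736 = true := by decide +kernel
theorem cN_1458 : allRange (fun x => forceN T.chkName x) 1458 720 = true := by decide +kernel
theorem cN_2178 : allRange (fun x => forceN T.chkName x) 2178 721 = true := by decide +kernel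
theorem cN_2899 : allRange (fun x => forceN T.chkName x) 2899 723 = true := by decide +kernel
theorem cN_3622 : allRange (fun x => forceN T.chkName x) 3622 718 = true := by decide +kernel
theorem cN_4340 : allRange (fun x => forceN T.chkName x) 4340 709 = true := by decide +kernel
theorem cN_5049 : allRange (fun x => forceN T.chkName x) 5049 708 = true := by decide +kernel
theorem cN_5757 : allRange (fun x => forceN T.chkName x) 5757 702 = true := by decide +kernel
theorem cN_6459 : allRange (fun x => forceN T.chkName x) 6459 685 = true := by decide +kernel
theorem cN_7144 : allRange (fun x => forceN T.chkName x) 7144 688 = true := by decide +kernel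
theorem cN_7832 : allRange (fun x => forceN T.chkName x) 7832 668 = true := by decide +kernel

end Cfsg.Agent.Lib.Helper56.Suz22880
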