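import Mathlib
import Cfsg.Agent.Lib.Helper56.TC
import Cfsg.Agent.Lib.Helper56.Suz22880.D
set_option autoImplicit false
set_option maxRecDepth 1000000

namespace Cfsg.Agent.Lib.Helper56.Suz22880

open Cfsg.Agent.Lib.Helper56.TC Cfsg.Agent.Lib.Helper56.TC.Tabs

theorem cN_8500 : allRange (fun x => forceN T.chkName x) 8500 674 = true := by decide +kernel
theorem cN_9174 : allRange (fun x => forceN T.chkName x) 9174 671 = true := by decide +kernel
theorem cN_9845 : allRange (fun x => forceN T.chkName x) 9845 682 = true := by decide +kernel
theorem cN_10527 : allRange (fun x => forceN T.chkName x) 10527 680 = true := by decide +kernel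
theorem cN_11207 : allRange (fun x => forceN T.chkName x) 11207 692 = true := by decide +kernel
theorem cN_11899 : allRange (fun x => forceN T.chkName x) 11899 666 = true := by decide +kernel
theorem cN_12565 : allRange (fun x => forceN T.chkName x) 12565 690 = true := by decide +kernel
theorem cN_13255 : allRange (fun x => forceN T.chkName x) 13255 662 = true := by decide +kernel
theorem cN_13917 : allRange (fun x => forceN T.chkName x) 13917 677 = true := by decide +kernel
theorem cN_14594 : allRange (fun x => forceN T.chkName x) 14594 673 = true := by decide +kernel
theorem cN_15267 : allRange (fun x => forceN T.chkName x) 15267 688 = true := by decide +kernel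
theorem cN_15955 : allRange (fun x => forceN T.chkName x) 15955 675 = true := by decide +kernel

end Cfsg.Agent.Lib.Helper56.Suz22880
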