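import Mathlib
import Cfsg.Agent.Lib.Helper56.TC
import Cfsg.Agent.Lib.Helper56.Suz22880.D
set_option autoImplicit false
set_option maxRecDepth 1000000

namespace Cfsg.Agent.Lib.Helper56.Suz22880

open Cfsg.Agent.Lib.Helper56.TC Cfsg.Agent.Lib.Helper56.TC.Tabs

theorem cN_16630 : allRange (fun x => forceN T.chkName x) 16630 676 = true := by decide +kernel
theorem cN_17306 : allRange (fun x => forceN T.chkName x) 17306 669 = true := by decide +kernel
theorem cN_17975 : allRange (fun x => forceN T.chkName x) 17975 675 = true := by decide +kernel
theorem cN_18650 : allRange (fun x => forceN T.chkName x) 18650 668 = true := by decide +kernel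
theorem cN_19318 : allRange (fun x => forceN T.chkName x) 19318 665 = true := by decide +kernel
theorem cN_19983 : allRange (fun x => forceN T.chkName x) 19983 670 = true := by decide +kernel
theorem cN_20653 : allRange (fun x => forceN T.chkName x) 20653 654 = true := by decide +kernel
theorem cN_21307 : allRange (fun x => forceN T.chkName x) 21307 660 = true := by decide +kernel
theorem cN_21967 : allRange (fun x => forceN T.chkName x) 21967 665 = true := by decide +kernel
theorem cN_22632 : allRange (fun x => forceN T.chkName x) 22632 719 = true := by decide +kernel
theorem cN_23351 : allRange (fun x => forceN T.chkName x) 23351 783 = true := by decide +kernel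
theorem cN_24134 : allRange (fun x => forceN T.chkName x) 24134 809 = true := by decide +kernel

end Cfsg.Agent.Lib.Helper56.Suz22880
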