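import Mathlib
import Cfsg.Agent.Lib.Helper56.TC
import Cfsg.Agent.Lib.Helper56.Suz22880.D
set_option autoImplicit false
set_option maxRecDepth 1000000

namespace Cfsg.Agent.Lib.Helper56.Suz22880

open Cfsg.Agent.Lib.Helper56.TC Cfsg.Agent.Lib.Helper56.TC.Tabs

theorem cN_24943 : allRange (fun x => forceN T.chkName x) 24943 832 = true := by decide +kernel
theorem cN_25775 : allRange (fun x => forceN T.chkName x) 25775 805 = true := by decide +kernel
theorem cN_26580 : allRange (fun x => forceN T.chkName x) 26580 839 = true := by decide +kernel
theorem cN_27419 : allRange (fun x => forceN T.chkName x) 27419 498 = true := by decide +kernel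
theorem cV_0 : allRange (fun x => forceN T.chkV x) 0 535 = true := by decide +kernel
theorem cV_535 : allRange (fun x => forceN T.chkV x) 535 535 = true := by decide +kernel
theorem cV_1070 : allRange (fun x => forceN T.chkV x) 1070 535 = true := by decide +kernel
theorem cV_1605 : allRange (fun x => forceN T.chkV x) 1605 535 = true := by decide +kernel
theorem cV_2140 : allRange (fun x => forceN T.chkV x) 2140 535 = true := by decide +kernel
theorem cV_2675 : allRange (fun x => forceN T.chkV x) 2675 535 = true := by decide +kernel
theorem cV_3210 : allRange (fun x => forceN T.chkV x) 3210 535 = true := by decide +kernel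
theorem cV_3745 : allRange (fun x => forceN T.chkV x) 3745 535 = true := by decide +kernel

end Cfsg.Agent.Lib.Helper56.Suz22880
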