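import Mathlib
import Cfsg.Agent.Lib.Helper56.TC
import Cfsg.Agent.Lib.Helper56.Suz22880.D
set_option autoImplicit false
set_option maxRecDepth 1000000

namespace Cfsg.Agent.Lib.Helper56.Suz22880

open Cfsg.Agent.Lib.Helper56.TC Cfsg.Agent.Lib.Helper56.TC.Tabs

theorem cV_4280 : allRange (fun x => forceN T.chkV x) 4280 535 = true := by decide +kernel
theorem cV_4815 : allRange (fun x => forceN T.chkV x) 4815 535 = true := by decide +kernel
theorem cV_5350 : allRange (fun x => forceN T.chkV x) 5350 535 = true := by decide +kernel
theorem cV_5885 : allRange (fun x => forceN T.chkV x) 5885 535 = true := by decide +kernel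
theorem cV_6420 : allRange (fun x => forceN T.chkV x) 6420 535 = true := by decide +kernel
theorem cV_6955 : allRange (fun x => forceN T.chkV x) 6955 535 = true := by decide +kernel
theorem cV_7490 : allRange (fun x => forceN T.chkV x) 7490 535 = true := by decide +kernel
theorem cV_8025 : allRange (fun x => forceN T.chkV x) 8025 535 = true := by decide +kernel
theorem cV_8560 : allRange (fun x => forceN T.chkV x) 8560 535 = true := by decide +kernel
theorem cV_9095 : allRange (fun x => forceN T.chkV x) 9095 535 = true := by decide +kernel
theorem cV_9630 : allRange (fun x => forceN T.chkV x) 9630 535 = true := by decide +kernel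
theorem cV_10165 : allRange (fun x => forceN T.chkV x) 10165 535 = true := by decide +kernel

end Cfsg.Agent.Lib.Helper56.Suz22880
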