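import Mathlib
import Cfsg.Agent.Lib.Helper56.TC
import Cfsg.Agent.Lib.Helper56.Suz22880.D
set_option autoImplicit false
set_option maxRecDepth 1000000

namespace Cfsg.Agent.Lib.Helper56.Suz22880

open Cfsg.Agent.Lib.Helper56.TC Cfsg.Agent.Lib.Helper56.TC.Tabs

theorem cV_10700 : allRange (fun x => forceN T.chkV x) 10700 535 = true := by decide +kernel
theorem cV_11235 : allRange (fun x => forceN T.chkV x) 11235 535 = true := by decide +kernel
theorem cV_11770 : allRange (fun x => forceN T.chkV x) 11770 535 = true := by decide +kernel
theorem cV_12305 : allRange (fun x => forceN T.chkV x) 12305 535 = true := by decide +kernel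
theorem cV_12840 : allRange (fun x => forceN T.chkV x) 12840 535 = true := by decide +kernel
theorem cV_13375 : allRange (fun x => forceN T.chkV x) 13375 535 = true := by decide +kernel
theorem cV_13910 : allRange (fun x => forceN T.chkV x) 13910 535 = true := by decide +kernel
theorem cV_14445 : allRange (fun x => forceN T.chkV x) 14445 535 = true := by decide +kernel
theorem cV_14980 : allRange (fun x => forceN T.chkV x) 14980 535 = true := by decide +kernel
theorem cV_15515 : allRange (fun x => forceN T.chkV x) 15515 535 = true := by decide +kernel
theorem cV_16050 : allRange (fun x => forceN T.chkV x) 16050 535 = true := by decide +kernel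
theorem cV_16585 : allRange (fun x => forceN T.chkV x) 16585 535 = true := by decide +kernel

end Cfsg.Agent.Lib.Helper56.Suz22880
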