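import Mathlib
import Cfsg.Agent.Lib.Helper56.TC
import Cfsg.Agent.Lib.Helper56.Suz22880.D
set_option autoImplicit false
set_option maxRecDepth 1000000

namespace Cfsg.Agent.Lib.Helper56.Suz22880

open Cfsg.Agent.Lib.Helper56.TC Cfsg.Agent.Lib.Helper56.TC.Tabs

theorem cV_17120 : allRange (fun x => forceN T.chkV x) 17120 535 = true := by decide +kernel
theorem cV_17655 : allRange (fun x => forceN T.chkV x) 17655 535 = true := by decide +kernel
theorem cV_18190 : allRange (fun x => forceN T.chkV x) 18190 535 = true := by decide +kernel
theorem cV_18725 : allRange (fun x => forceN T.chkV x) 18725 535 = true := by decide +kernel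
theorem cV_19260 : allRange (fun x => forceN T.chkV x) 19260 535 = true := by decide +kernel
theorem cV_19795 : allRange (fun x => forceN T.chkV x) 19795 535 = true := by decide +kernel
theorem cV_20330 : allRange (fun x => forceN T.chkV x) 20330 535 = true := by decide +kernel
theorem cV_20865 : allRange (fun x => forceN T.chkV x) 20865 535 = true := by decide +kernel
theorem cV_21400 : allRange (fun x => forceN T.chkV x) 21400 535 = true := by decide +kernel
theorem cV_21935 : allRange (fun x => forceN T.chkV x) 21935 535 = true := by decide +kernel
theorem cV_22470 : allRange (fun x => forceN T.chkV x) 22470 410 = true := by decide +kernel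

end Cfsg.Agent.Lib.Helper56.Suz22880
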